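import Cfsg.Agent.H700.F43.Eng
import Cfsg.Agent.H701.F43.Cent

/-!
# `F₄(3)`: the commutators of the root elements of `V_J = 3^(1+14)` (S2465, block E; helper25)

`idxV` = the fifteen roots `b` with `⟨b, θ^∨⟩ > 0`, `θ = 47`.

* `eps b c ∈ {0, 1, -1}`, `eps b c ≠ 0 ↔ b + c = θ`;
* `comm_V` : `x_b(s) x_c(t) = x_θ(eps b c * s * t) x_c(t) x_b(s)`;
* `comm_V'` : the commutator is `x_θ(eps b c * s * t)`.
-/

set_option autoImplicit false

namespace Cfsg.Agent.H25.F43.CommV

open Cfsg.Agent.H701.F43.Cent (idxV lt_idxV)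
open Cfsg.Lie Cfsg.Agent.H700.F43 Cfsg.Agent.Nodes.RGDChev
  Cfsg.Agent.KFacts.RgdChevCoord
open scoped commutatorElement

/-- the pairs with sign `+` -/
def posE : List (ℕ × ℕ) := [(24, 46), (26, 45), (32, 42), (38, 39), (40, 36), (43, 31), (44, 29)]

/-- the sign of `(b, c)` -/
def eps (b c : ℕ) : ZMod 3 := bif posE.contains (b, c) then 1 else bif posE.contains (c, b) then -1 else 0

/-- the word of `x_θ(eps b c)` -/
def wz (b c : ℕ) : List (ℕ × Bool) :=
  bif posE.contains (b, c) then [(47, true)] else bif posE.contains (c, b) then [(47, false)] else []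

theorem eps_swap : ∀ b ∈ idxV, ∀ c ∈ idxV, eps c b = -eps b c := by decide +kernel

/-- `eps b c ≠ 0` if and only if `b + c = θ` -/
theorem eps_ne_zero_iff : ∀ b ∈ idxV, ∀ c ∈ idxV,
    (eps b c ≠ 0 ↔ ∀ i, vec chevF4 4 b i + vec chevF4 4 c i = vec chevF4 4 47 i) := by decide +kernel

theorem eps_theta : ∀ b ∈ idxV, eps b 47 = 0 ∧ eps 47 b = 0 := by decide +kernel

/-- the partner of a root -/
def par (b : ℕ) : ℕ := ((posE.map fun p => (p.1, p.2)) ++ (posE.map fun p => (p.2, p.1))).lookup b |>.getD 47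

theorem par_spec : ∀ b ∈ idxV, b ≠ 47 → par b ∈ idxV ∧ par b ≠ 47 ∧ par (par b) = b ∧ eps b (par b) ≠ 0 ∧
    ∀ c ∈ idxV, eps b c ≠ 0 → c = par b := by decide +kernel

theorem xr_false (r : ℕ) : xr (r, false) = xc hF (vec chevF4 4 r) (-1) := rfl

theorem xr_true (r : ℕ) : xr (r, true) = xc hF (vec chevF4 4 r) 1 := rfl

theorem wd_wz (b c : ℕ) : wd (wz b c) = xc hF (vec chevF4 4 47) (eps b c) := by
  unfold wz eps
  cases posE.contains (b, c)
  · cases posE.contains (c, b)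
    · rw [cond_false, cond_false, cond_false, cond_false, wd_nil]
      apply Subtype.ext
      rw [coe_xc (K := ZMod 3) hF (r := 47) (by decide +kernel)]
      exact (Cfsg.Agent.ChevalleyStructure.Elts.xG_zero _ _).symm
    · rw [cond_false, cond_false, cond_true, cond_true, wd_single, xr_false]
  · rw [cond_true, cond_true, wd_single, xr_true]

/-- the table -/
noncomputable def tabChk : Bool :=
  idxV.all fun b => idxV.all fun c => Nat.ble c b || chkE [(b, true), (c, true)] (wz b c ++ [(c, true), (b, true)])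

set_option maxRecDepth 100000 in
theorem tabChk_true : tabChk = true := by decide +kernel

/-! ### the group -/

theorem lt48 {b : ℕ} (hb : b ∈ idxV) : b < chevF4.nroots := lt_idxV b hb

theorem h47 : (47 : ℕ) ∈ idxV := by decide +kernel

theorem xc_mul {r : ℕ} (hr : r < chevF4.nroots) (s t : ZMod 3) :
    xc hF (vec chevF4 4 r) s * xc hF (vec chevF4 4 r) t = xc hF (vec chevF4 4 r) (s + t) := by
  apply Subtype.ext
  rw [Subgroup.coe_mul, coe_xc hF hr, coe_xc hF hr, coe_xc hF hr]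
  exact Cfsg.Agent.ChevalleyStructure.Elts.xG_add _ _ _ _

theorem xc_zero {r : ℕ} (hr : r < chevF4.nroots) : xc hF (vec chevF4 4 r) (0 : ZMod 3) = 1 := by
  apply Subtype.ext
  rw [coe_xc hF hr]
  exact Cfsg.Agent.ChevalleyStructure.Elts.xG_zero _ _

theorem xc_inv {r : ℕ} (hr : r < chevF4.nroots) (s : ZMod 3) :
    (xc hF (vec chevF4 4 r) s)⁻¹ = xc hF (vec chevF4 4 r) (-s) := by
  rw [inv_eq_iff_mul_eq_one, xc_mul hr, add_neg_cancel, xc_zero hr]

/-- the relation for `1, 1` -/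
theorem rel_one {b c : ℕ} (hb : b ∈ idxV) (hc : c ∈ idxV) :
    xc hF (vec chevF4 4 b) (1 : ZMod 3) * xc hF (vec chevF4 4 c) 1 =
      xc hF (vec chevF4 4 47) (eps b c) * (xc hF (vec chevF4 4 c) 1 * xc hF (vec chevF4 4 b) 1) := by
  have key : ∀ b ∈ idxV, ∀ c ∈ idxV, b < c → wd [(b, true), (c, true)] = wd (wz b c ++ [(c, true), (b, true)]) := by
    intro b hb c hc hlt
    have h1 := tabChk_true
    rw [tabChk, List.all_eq_true] at h1
    have h2 := h1 b hb
    rw [List.all_eq_true] at h2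
    have h3 := h2 c hc
    rw [Bool.or_eq_true, Nat.ble_eq] at h3
    rcases h3 with h3 | h3
    · omega
    · exact word_eq h3
  have key2 : ∀ b ∈ idxV, ∀ c ∈ idxV, b < c → xc hF (vec chevF4 4 b) (1 : ZMod 3) * xc hF (vec chevF4 4 c) 1 =
      xc hF (vec chevF4 4 47) (eps b c) * (xc hF (vec chevF4 4 c) 1 * xc hF (vec chevF4 4 b) 1) := by
    intro b hb c hc hlt
    have h1 := key b hb c hc hlt
    rw [wd_append, wd_wz, wd_cons, wd_single, wd_cons, wd_single] at h1
    exact h1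
  rcases lt_trichotomy b c with h | h | h
  · exact key2 b hb c hc h
  · subst h
    have h0 : eps b b = 0 := by
      have : ∀ b ∈ idxV, eps b b = 0 := by decide +kernel
      exact this b hb
    rw [h0, xc_zero (lt48 h47), one_mul]
  · have h1 := key2 c hc b hb h
    rw [h1, eps_swap b hb c hc, ← mul_assoc, xc_mul (lt48 h47), add_neg_cancel, xc_zero (lt48 h47), one_mul]

theorem comm_theta_one {b : ℕ} (hb : b ∈ idxV) :
    xc hF (vec chevF4 4 47) (1 : ZMod 3) * xc hF (vec chevF4 4 b) 1 =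
      xc hF (vec chevF4 4 b) 1 * xc hF (vec chevF4 4 47) 1 := by
  have h1 := rel_one h47 hb
  rw [(eps_theta b hb).2, xc_zero (lt48 h47), one_mul] at h1
  exact h1

/-- a relation `x y = z y x` with `z` central -/
theorem pow_rel {G : Type*} [Group G] {x y z : G} (hx : Commute z x) (hy : Commute z y) (h : x * y = z * (y * x)) (i j : ℕ) :
    x ^ i * y ^ j = z ^ (i * j) * (y ^ j * x ^ i) := by
  have h1 : ∀ i : ℕ, x ^ i * y = z ^ i * (y * x ^ i) := by
    intro i
    induction i with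
    | zero => simp
    | succ i ih =>
      rw [pow_succ, mul_assoc, h, ← mul_assoc (x ^ i), ← (hx.pow_right i).eq, mul_assoc z, ← mul_assoc (x ^ i) y x, ih,
        pow_succ' z, mul_assoc z, mul_assoc (z ^ i), mul_assoc y, ← pow_succ]
  induction j with
  | zero => simp
  | succ j ih =>
    rw [pow_succ y, ← mul_assoc, ih, mul_assoc, mul_assoc, h1 i, ← mul_assoc (y ^ j),
      ← ((hy.pow_left i).pow_right j).eq, Nat.mul_succ, pow_add, mul_assoc, mul_assoc, mul_assoc]

section Abs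

variable {G : Type*} [Group G]

theorem nat_of_add {x : ZMod 3 → G} (hx : ∀ s t, x s * x t = x (s + t)) (n : ℕ) : x (n : ZMod 3) = x 1 ^ n := by
  have h0 : x 0 = 1 := by
    have := hx 0 0
    rwa [add_zero, mul_eq_left] at this
  induction n with
  | zero => rw [Nat.cast_zero, h0, pow_zero]
  | succ n ih => rw [Nat.cast_succ, ← hx, ih, pow_succ]

theorem abs_comm {x y : ZMod 3 → G} (hx : ∀ s t, x s * x t = x (s + t)) (hy : ∀ s t, y s * y t = y (s + t))
    (h : x 1 * y 1 = y 1 * x 1) (s t : ZMod 3) : x s * y t = y t * x s := by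
  obtain ⟨m, rfl⟩ : ∃ m : ℕ, s = m := ⟨s.val, (ZMod.natCast_zmod_val s).symm⟩
  obtain ⟨n, rfl⟩ : ∃ m : ℕ, t = m := ⟨t.val, (ZMod.natCast_zmod_val t).symm⟩
  rw [nat_of_add hx, nat_of_add hy]
  exact (Commute.pow_pow (show Commute (x 1) (y 1) from h) m n).eq

theorem abs_rel {x y z : ZMod 3 → G} (hx : ∀ s t, x s * x t = x (s + t)) (hy : ∀ s t, y s * y t = y (s + t))
    (hz : ∀ s t, z s * z t = z (s + t)) (hzx : z 1 * x 1 = x 1 * z 1) (hzy : z 1 * y 1 = y 1 * z 1) {ε : ZMod 3}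
    (h : x 1 * y 1 = z ε * (y 1 * x 1)) (s t : ZMod 3) : x s * y t = z (ε * s * t) * (y t * x s) := by
  obtain ⟨m, rfl⟩ : ∃ m : ℕ, s = m := ⟨s.val, (ZMod.natCast_zmod_val s).symm⟩
  obtain ⟨n, rfl⟩ : ∃ m : ℕ, t = m := ⟨t.val, (ZMod.natCast_zmod_val t).symm⟩
  have h1 := pow_rel (abs_comm hz hx hzx ε 1) (abs_comm hz hy hzy ε 1) h m n
  have h2 : z ε ^ (m * n) = z (ε * m * n) := by
    obtain ⟨k, rfl⟩ : ∃ m : ℕ, ε = m := ⟨ε.val, (ZMod.natCast_zmod_val ε).symm⟩
    rw [nat_of_add hz, ← pow_mul, ← nat_of_add hz, Nat.cast_mul, Nat.cast_mul, mul_assoc]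
  rw [nat_of_add hx, nat_of_add hy, h1, h2]

/-- the same in a subgroup (syntactic form of the multiplication) -/
theorem abs_comm' {H : Subgroup G} {x y : ZMod 3 → ↥H} (hx : ∀ s t, x s * x t = x (s + t))
    (hy : ∀ s t, y s * y t = y (s + t)) (h : x 1 * y 1 = y 1 * x 1) (s t : ZMod 3) : x s * y t = y t * x s :=
  abs_comm hx hy h s t

theorem abs_rel' {H : Subgroup G} {x y z : ZMod 3 → ↥H} (hx : ∀ s t, x s * x t = x (s + t))
    (hy : ∀ s t, y s * y t = y (s + t)) (hz : ∀ s t, z s * z t = z (s + t)) (hzx : z 1 * x 1 = x 1 * z 1)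
    (hzy : z 1 * y 1 = y 1 * z 1) {ε : ZMod 3} (h : x 1 * y 1 = z ε * (y 1 * x 1)) (s t : ZMod 3) :
    x s * y t = z (ε * s * t) * (y t * x s) :=
  abs_rel hx hy hz hzx hzy h s t

end Abs

/-- `X_θ` is central in `V_J` -/
theorem comm_theta {b : ℕ} (hb : b ∈ idxV) (s t : ZMod 3) :
    xc hF (vec chevF4 4 47) s * xc hF (vec chevF4 4 b) t = xc hF (vec chevF4 4 b) t * xc hF (vec chevF4 4 47) s :=
  abs_comm' (xc_mul (lt48 h47)) (xc_mul (lt48 hb)) (comm_theta_one hb) s t

/-- **the commutator relations of `V_J`** -/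
theorem comm_V {b c : ℕ} (hb : b ∈ idxV) (hc : c ∈ idxV) (s t : ZMod 3) :
    xc hF (vec chevF4 4 b) s * xc hF (vec chevF4 4 c) t =
      xc hF (vec chevF4 4 47) (eps b c * s * t) * (xc hF (vec chevF4 4 c) t * xc hF (vec chevF4 4 b) s) :=
  abs_rel' (xc_mul (lt48 hb)) (xc_mul (lt48 hc)) (xc_mul (lt48 h47)) (comm_theta_one hb) (comm_theta_one hc)
    (rel_one hb hc) s t

/-- the commutator -/
theorem comm_V' {b c : ℕ} (hb : b ∈ idxV) (hc : c ∈ idxV) (s t : ZMod 3) :
    ⁅xc hF (vec chevF4 4 b) s, xc hF (vec chevF4 4 c) t⁆ = xc hF (vec chevF4 4 47) (eps b c * s * t) := by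
  rw [commutatorElement_def, comm_V hb hc]
  group

/-- all other pairs commute -/
theorem commute_of_eps {b c : ℕ} (hb : b ∈ idxV) (hc : c ∈ idxV) (h : eps b c = 0) (s t : ZMod 3) :
    Commute (xc hF (vec chevF4 4 b) s) (xc hF (vec chevF4 4 c) t) := by
  have h1 := comm_V hb hc s t
  rw [h, zero_mul, zero_mul, xc_zero (lt48 h47), one_mul] at h1
  exact h1

end Cfsg.Agent.H25.F43.CommV
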